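/-
The rank one relations for the seven types.
-/
import Cfsg.Agent.Lib.Chev.Rank1
import Cfsg.Agent.Lib.Chev.All3

set_option autoImplicit false

namespace Cfsg.Agent.Lib.Chev

open Cfsg.Lie

theorem rank1G2 : digG2.tbl.chkRank1 = true := by decide +kernel
theorem rank1B2 : digB2.tbl.chkRank1 = true := by decide +kernel
theorem rank1D4 : digD4.tbl.chkRank1 = true := by decide +kernel
theorem rank1F4 : digF4.tbl.chkRank1 = true := by decide +kernel
theorem rank1E6 : digE6.tbl.chkRank1 = true := by decide +kernel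
theorem rank1E7 : digE7.tbl.chkRank1 = true := by decide +kernel
theorem rank1E8 : digE8.tbl.chkRank1 = true := by decide +kernel

/-- Each of the seven data has tables with the rank one relations. -/
theorem exists_good_rank1 {D : ChevalleyDatum}
    (hD : D ∈ [chevG2, chevB2, chevD4, chevF4, chevE6, chevE7, chevE8]) :
    ∃ T : Tbl, T.Good3 D ∧ T.chkRank1 = true := by
  simp only [List.mem_cons, List.not_mem_nil, or_false] at hD
  rcases hD with rfl | rfl | rfl | rfl | rfl | rfl | rfl
  · exact ⟨_, good3G2, rank1G2⟩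
  · exact ⟨_, good3B2, rank1B2⟩
  · exact ⟨_, good3D4, rank1D4⟩
  · exact ⟨_, good3F4, rank1F4⟩
  · exact ⟨_, good3E6, rank1E6⟩
  · exact ⟨_, good3E7, rank1E7⟩
  · exact ⟨_, good3E8, rank1E8⟩

end Cfsg.Agent.Lib.Chev
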