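/-
Coset tables for the Coxeter group of type B2. Generated.
-/
import Cfsg.Agent.Lib.Chev.Wey
import Cfsg.Agent.Lib.Chev.T3B2

set_option autoImplicit false
set_option maxRecDepth 100000

namespace Cfsg.Agent.Lib.Chev

open Cfsg.Lie

/-- The Coxeter matrix of type B2. -/
def cmB2 (i j : ℕ) : ℕ := digit 0x1441 4 (Nat.add (Nat.mul i 2) j)

/-- The chain of parabolic subgroups of type B2. -/
def lvsB2 : List Wey.Lv := [
  ⟨3, 2, 4, 0, 8, 0x72a54e0, 0x301020002030001, 0x3020100, 0x10000⟩,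
  ⟨2, 0, 2, 0, 8, 0xe8f0, 0x10000, 0x100, 0x100⟩]

theorem relB2 : Wey.chkRel digB2.tbl cmB2 = true := by decide +kernel

theorem chainB2 : Wey.chkChain digB2.tbl cmB2 lvsB2 3 = true := by decide +kernel

theorem coxB2 : Nat.card (CoxeterMatrix.B 2).Group = 8 ∧
    ∃ ρ : (CoxeterMatrix.B 2).Group →* Equiv.Perm (Fin chevB2.nroots),
      (∀ (i : Fin 2) (r : Fin chevB2.nroots), (ρ ((CoxeterMatrix.B 2).simple i) r).val = digB2.tbl.refl i r) ∧
        Function.Injective ρ :=
  Wey.coxeter_main (n := 2) (Wey.invT_of_good good3B2.toGood2) rfl (CoxeterMatrix.B 2) (by intro i j; fin_cases i <;> fin_cases j <;> rfl) relB2 (top := 3) (by decide) chainB2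

theorem ordB2 : Wey.chkOrd digB2.tbl 2 4 = true := by decide +kernel

theorem coxOrdB2 : orderOf ((List.finRange 2).map (CoxeterMatrix.B 2).simple).prod = 4 := by
  obtain ⟨-, ρ, h1, h2⟩ := coxB2
  exact Wey.order_cox (Wey.invT_of_good good3B2.toGood2) h1 h2 (by norm_num) ordB2

end Cfsg.Agent.Lib.Chev
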