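/-
Coset tables for the Coxeter group of type D4. Generated.
-/
import Cfsg.Agent.Lib.Chev.Wey
import Cfsg.Agent.Lib.Chev.T3D4

set_option autoImplicit false
set_option maxRecDepth 100000

namespace Cfsg.Agent.Lib.Chev

open Cfsg.Lie

/-- The Coxeter matrix of type D4. -/
def cmD4 (i j : ℕ) : ℕ := digit 0x1232213233132231 4 (Nat.add (Nat.mul i 4) j)

/-- The chain of parabolic subgroups of type D4. -/
def lvsD4 : List Wey.Lv := [
  ⟨15, 14, 8, 0, 24, 0x3f0403c1084c4221290810948442321083c020fc0000, 0x706030205040100070604050203010007050604030102000607050403020001, 0x605040303020100, 0x1020302010000⟩,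
  ⟨14, 10, 4, 0, 24, 0xfc0940fc1280fcc400ff2000, 0x2030100030200010301020000000000, 0x3020100, 0x3010200⟩,
  ⟨10, 8, 3, 0, 24, 0xff2900ff3200ffe000, 0x10200000000020001000000, 0x20100, 0x30100⟩,
  ⟨8, 0, 2, 0, 24, 0xffe800fff000, 0x1000000000000, 0x100, 0x300⟩]

theorem relD4 : Wey.chkRel digD4.tbl cmD4 = true := by decide +kernel

theorem chainD4 : Wey.chkChain digD4.tbl cmD4 lvsD4 15 = true := by decide +kernel

theorem coxD4 : Nat.card Cfsg.Lie.coxeterD4.Group = 192 ∧
    ∃ ρ : Cfsg.Lie.coxeterD4.Group →* Equiv.Perm (Fin chevD4.nroots),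
      (∀ (i : Fin 4) (r : Fin chevD4.nroots), (ρ (Cfsg.Lie.coxeterD4.simple i) r).val = digD4.tbl.refl i r) ∧
        Function.Injective ρ :=
  Wey.coxeter_main (n := 4) (Wey.invT_of_good good3D4.toGood2) rfl Cfsg.Lie.coxeterD4 (by intro i j; fin_cases i <;> fin_cases j <;> rfl) relD4 (top := 15) (by decide) chainD4

theorem ordD4 : Wey.chkOrd digD4.tbl 4 6 = true := by decide +kernel

theorem coxOrdD4 : orderOf ((List.finRange 4).map Cfsg.Lie.coxeterD4.simple).prod = 6 := by
  obtain ⟨-, ρ, h1, h2⟩ := coxD4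
  exact Wey.order_cox (Wey.invT_of_good good3D4.toGood2) h1 h2 (by norm_num) ordD4

end Cfsg.Agent.Lib.Chev
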