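/-
Coset tables for the Coxeter group of type F4. Generated.
-/
import Cfsg.Agent.Lib.Chev.Wey
import Cfsg.Agent.Lib.Chev.T3F4

set_option autoImplicit false
set_option maxRecDepth 100000

namespace Cfsg.Agent.Lib.Chev

open Cfsg.Lie

/-- The Coxeter matrix of type F4. -/
def cmF4 (i j : ℕ) : ℕ := digit 0x1322314224132231 4 (Nat.add (Nat.mul i 4) j)

/-- The chain of parabolic subgroups of type F4. -/
def lvsF4 : List Wey.Lv := [
  ⟨15, 14, 24, 0, 48, 0x7fff0002001f878f0004086c999b000812952aad002058a44b390010251a34ce022e00a58b810040a948555a0456014a958200813610666c0101f8007878089a061326841e1e001f80802164c86059103666086c810041a952806a205aaa1295020081d1a5007440732c58a408009cd2251a0400b554a9481000d99936102000f1e1f8004000fffe00000000, 0x1716151210140f13110e0d0c0b0a09060408030705020100171614151312110e0c100d0f0b08070a090605040203010017151613141011120f0d0e0a090c0b080506070304010200161715141112130f100c0b0e0d090a070804050603020001, 0xf0e0d0c0b0b0a0a09090808070706060505040403020100, 0x102010001030002000001010002000100030102010000⟩,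
  ⟨14, 6, 6, 0, 48, 0xfffe00a58000fffe014a8000fffe06130000fffec8600000ffff52800000ffffa5000000, 0x40503020001050304010200050402030100000000000000, 0x50403020100, 0x30201020300⟩,
  ⟨6, 4, 4, 0, 48, 0xffffa51a0000ffffad480000ffffb7100000fffffd000000, 0x30102000203000100000000, 0x3020100, 0x1020100⟩,
  ⟨4, 0, 2, 0, 48, 0xfffffd400000ffffff000000, 0x100000000, 0x100, 0x200⟩]

theorem relF4 : Wey.chkRel digF4.tbl cmF4 = true := by decide +kernel

theorem chainF4 : Wey.chkChain digF4.tbl cmF4 lvsF4 15 = true := by decide +kernel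

theorem coxF4 : Nat.card CoxeterMatrix.F₄.Group = 1152 ∧
    ∃ ρ : CoxeterMatrix.F₄.Group →* Equiv.Perm (Fin chevF4.nroots),
      (∀ (i : Fin 4) (r : Fin chevF4.nroots), (ρ (CoxeterMatrix.F₄.simple i) r).val = digF4.tbl.refl i r) ∧
        Function.Injective ρ :=
  Wey.coxeter_main (n := 4) (Wey.invT_of_good good3F4.toGood2) rfl CoxeterMatrix.F₄ (by intro i j; fin_cases i <;> fin_cases j <;> rfl) relF4 (top := 15) (by decide) chainF4

theorem ordF4 : Wey.chkOrd digF4.tbl 4 12 = true := by decide +kernel

theorem coxOrdF4 : orderOf ((List.finRange 4).map CoxeterMatrix.F₄.simple).prod = 12 := by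
  obtain ⟨-, ρ, h1, h2⟩ := coxF4
  exact Wey.order_cox (Wey.invT_of_good good3F4.toGood2) h1 h2 (by norm_num) ordF4

end Cfsg.Agent.Lib.Chev
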