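/-
Coset tables for the Coxeter group of type G2. Generated.
-/
import Cfsg.Agent.Lib.Chev.Wey
import Cfsg.Agent.Lib.Chev.T3G2

set_option autoImplicit false
set_option maxRecDepth 100000

namespace Cfsg.Agent.Lib.Chev

open Cfsg.Lie

/-- The Coxeter matrix of type G2. -/
def cmG2 (i j : ℕ) : ℕ := digit 0x1661 4 (Nat.add (Nat.mul i 2) j)

/-- The chain of parabolic subgroups of type G2. -/
def lvsG2 : List Wey.Lv := [
  ⟨3, 2, 6, 0, 12, 0x1f0ad1566a8b50f80, 0x50304010200040502030001, 0x50403020100, 0x100010000⟩,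
  ⟨2, 0, 2, 0, 12, 0xfa0fc0, 0x10000, 0x100, 0x100⟩]

theorem relG2 : Wey.chkRel digG2.tbl cmG2 = true := by decide +kernel

theorem chainG2 : Wey.chkChain digG2.tbl cmG2 lvsG2 3 = true := by decide +kernel

theorem coxG2 : Nat.card CoxeterMatrix.G₂.Group = 12 ∧
    ∃ ρ : CoxeterMatrix.G₂.Group →* Equiv.Perm (Fin chevG2.nroots),
      (∀ (i : Fin 2) (r : Fin chevG2.nroots), (ρ (CoxeterMatrix.G₂.simple i) r).val = digG2.tbl.refl i r) ∧
        Function.Injective ρ :=
  Wey.coxeter_main (n := 2) (Wey.invT_of_good good3G2.toGood2) rfl CoxeterMatrix.G₂ (by intro i j; fin_cases i <;> fin_cases j <;> rfl) relG2 (top := 3) (by decide) chainG2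

theorem ordG2 : Wey.chkOrd digG2.tbl 2 6 = true := by decide +kernel

theorem coxOrdG2 : orderOf ((List.finRange 2).map CoxeterMatrix.G₂.simple).prod = 6 := by
  obtain ⟨-, ρ, h1, h2⟩ := coxG2
  exact Wey.order_cox (Wey.invT_of_good good3G2.toGood2) h1 h2 (by norm_num) ordG2

end Cfsg.Agent.Lib.Chev
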